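import Cfsg.Agent.Lib.Helper57.OE.Base
import Cfsg.Agent.Lib.Helper57.OE.Defs2
import Cfsg.Agent.S0752

set_option autoImplicit false

namespace Cfsg.Agent.Lib.Helper41.OE

open Cfsg Cfsg.Geo Matrix Cfsg.Agent.Lib.Helper13.Asch Cfsg.Agent.Lib.Helper90.Sp
  Cfsg.Agent.Lib.Helper57.OE
open scoped Kronecker MatrixGroups

variable {ι : Type} [Fintype ι] [DecidableEq ι] {F : Type*} [Field F] {Q : (ι → F) → F}

/-- F0 -/
theorem alt_even {X : Type*} [AddCommGroup X] [Module F X] [FiniteDimensional F X]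
    (β : X →ₗ[F] X →ₗ[F] F) (halt : ∀ x, β x x = 0) :
    Even (Module.finrank F X + Module.finrank F (LinearMap.ker β)) := by
  classical
  have hskew : ∀ x y, β x y = - β y x := by
    intro x y
    have h := halt (x + y)
    simp only [map_add, LinearMap.add_apply, halt, zero_add, add_zero] at h
    exact eq_neg_of_add_eq_zero_right h
  obtain ⟨X₁, hX₁⟩ := Submodule.exists_isCompl (LinearMap.ker β)
  let B : LinearMap.BilinForm F X₁ := β.domRestrict₁₂ X₁ X₁
  have hB : ∀ u v : X₁, B u v = β u.1 v.1 := fun u v => rfl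
  have hA : B.IsAlt := fun v => halt v.1
  obtain ⟨m, k, b, -, -, -, h4⟩ := Cfsg.Agent.S0752.result B hA
  have hk : k = 0 := by
    by_contra hne
    have j : Fin k := ⟨0, Nat.pos_of_ne_zero hne⟩
    have hmem : (b (Sum.inr j)).1 ∈ LinearMap.ker β := by
      rw [LinearMap.mem_ker]
      ext y
      have hy : y ∈ LinearMap.ker β ⊔ X₁ := by rw [hX₁.sup_eq_top]; trivial
      obtain ⟨r, hr, x, hx, rfl⟩ := Submodule.mem_sup.1 hy
      rw [map_add, hskew _ r, LinearMap.mem_ker.1 hr]
      have := h4 j ⟨x, hx⟩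
      rw [hB] at this
      simp [this]
    have h0 : (b (Sum.inr j)).1 = 0 := by
      have : (b (Sum.inr j)).1 ∈ LinearMap.ker β ⊓ X₁ := ⟨hmem, (b (Sum.inr j)).2⟩
      rw [hX₁.inf_eq_bot] at this
      exact this
    exact b.ne_zero (Sum.inr j) (Subtype.ext h0)
  subst hk
  have e1 := Module.finrank_eq_card_basis b
  have e2 := Submodule.finrank_add_eq_of_isCompl hX₁
  rw [← e2, e1]
  simp only [Fintype.card_sum, Fintype.card_fin, add_zero]
  exact ⟨Module.finrank F (LinearMap.ker β) + m, by ring⟩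

end Cfsg.Agent.Lib.Helper41.OE
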